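/-
helper51 for helper21's farm (orthogonal groups in dimension 10): piece M3, with the statement of
piece M1 as a hypothesis.
-/
import Cfsg.Agent.Lib.Helper21.O10.Defs

set_option autoImplicit false
set_option linter.unusedSectionVars false

namespace Cfsg.Agent.Lib.Helper51.O10

open Cfsg Cfsg.Geo Matrix Cfsg.Agent.Lib.Helper13.Asch Cfsg.Agent.Lib.Helper90.Sp
  Cfsg.Agent.Lib.Helper57.OE Cfsg.Agent.Lib.Helper21.O10
open scoped Kronecker MatrixGroups commutatorElement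

variable {ι : Type} [Fintype ι] [DecidableEq ι] {F : Type*} [Field F] {Q : (ι → F) → F}

section form

variable {f : (ι → F) → (ι → F) → F}

theorem f_neg_left (hf : IsSymmetricForm f) (x v : ι → F) : f (-x) v = - f x v := by
  have := hf.bilinear.smul_left (-1) x v
  simpa using this

theorem f_neg_right (hf : IsSymmetricForm f) (x v : ι → F) : f x (-v) = - f x v := by
  have := hf.bilinear.smul_right (-1) x v
  simpa using this

theorem f_sub_left (hf : IsSymmetricForm f) (x y v : ι → F) : f (x - y) v = f x v - f y v := by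
  rw [sub_eq_add_neg, hf.bilinear.add_left, f_neg_left hf, sub_eq_add_neg]

theorem f_sub_right (hf : IsSymmetricForm f) (v x y : ι → F) : f v (x - y) = f v x - f v y := by
  rw [sub_eq_add_neg, hf.bilinear.add_right, f_neg_right hf, sub_eq_add_neg]

theorem f_zero_left (hf : IsSymmetricForm f) (v : ι → F) : f 0 v = 0 := by
  have := hf.bilinear.smul_left 0 0 v
  simpa using this

theorem f_zero_right (hf : IsSymmetricForm f) (v : ι → F) : f v 0 = 0 := by
  have := hf.bilinear.smul_right 0 v 0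
  simpa using this

/-- (S1) -/
theorem skew_orth (h2 : (2 : F) ≠ 0) (hf : IsSymmetricForm f) (K : Subalgebra F (Matrix ι ι F))
    (hsa : IsSelfAdjointFor f K) (x : Matrix ι ι F) (hxK : Cent K x)
    (hx : ∀ u v, f (x *ᵥ u) v = - f u (x *ᵥ v)) (w : ι → F) (k : Matrix ι ι F) (hk : k ∈ K) :
    f (x *ᵥ w) (k *ᵥ w) = 0 := by
  have h1 : f (x *ᵥ w) (k *ᵥ w) = - f w (x *ᵥ (k *ᵥ w)) := hx _ _
  have h2' : x *ᵥ (k *ᵥ w) = k *ᵥ (x *ᵥ w) := by
    rw [mulVec_mulVec, mulVec_mulVec, hxK k hk]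
  have h3 : f (k *ᵥ w) (x *ᵥ w) = f w (k *ᵥ (x *ᵥ w)) := hsa k hk _ _
  have h4 := hf.symm (x *ᵥ w) (k *ᵥ w)
  rw [h2', ← h3, ← h4] at h1
  have h5 : (2 : F) * f (x *ᵥ w) (k *ᵥ w) = 0 := by linear_combination h1
  exact (mul_eq_zero.1 h5).resolve_left h2

theorem isotropic_of_orth (hf : IsSymmetricForm f) {r : ℕ} (K : Subalgebra F (Matrix ι ι F))
    (hK : IsFieldSubalgebra r K) (hsa : IsSelfAdjointFor f K) (w : ι → F) (k : Matrix ι ι F)
    (hk : k ∈ K) (hk0 : k ≠ 0) (h : ∀ l ∈ K, f (k *ᵥ w) (l *ᵥ w) = 0) :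
    ∀ l ∈ K, f (l *ᵥ w) w = 0 := by
  intro l hl
  obtain ⟨k', hk', hkk'⟩ := hK.inv k hk hk0
  have h1 : k' * k = 1 := by rw [hK.comm k' hk' k hk, hkk']
  have h2 : w = k' *ᵥ (k *ᵥ w) := by rw [mulVec_mulVec, h1, one_mulVec]
  have h3 : f (l *ᵥ w) (k' *ᵥ (k *ᵥ w)) = f (k' *ᵥ (l *ᵥ w)) (k *ᵥ w) :=
    (hsa k' hk' _ _).symm
  have h4 : f (l *ᵥ w) w = f (l *ᵥ w) (k' *ᵥ (k *ᵥ w)) := by rw [← h2]
  rw [h4, h3, hf.symm, mulVec_mulVec]
  exact h _ (K.mul_mem hk' hl)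

theorem exists_good (h2 : (2 : F) ≠ 0) (hf : IsSymmetricForm f) (K : Subalgebra F (Matrix ι ι F))
    (d : Matrix ι ι F) (hd0 : d ≠ 0) :
    ∃ w, d *ᵥ w ≠ 0 ∧ ∃ l ∈ K, f (l *ᵥ w) w ≠ 0 := by
  by_contra hcon
  push Not at hcon
  obtain ⟨w0, hw0⟩ : ∃ w0, d *ᵥ w0 ≠ 0 := by
    by_contra h
    push Not at h
    apply hd0
    rw [ext_iff_mulVec]
    intro v
    rw [h v, zero_mulVec]
  have hall : ∀ v, f v v = 0 := by
    intro v
    by_cases hv : d *ᵥ v = 0
    · have h1 := hcon (v + w0) (by rw [mulVec_add, hv, zero_add]; exact hw0) 1 K.one_mem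
      have h3 := hcon (v - w0) (by rw [mulVec_sub, hv, zero_sub]; exact neg_ne_zero.2 hw0) 1
        K.one_mem
      have h4 := hcon w0 hw0 1 K.one_mem
      rw [one_mulVec] at h1 h3 h4
      rw [hf.bilinear.add_left, hf.bilinear.add_right, hf.bilinear.add_right] at h1
      rw [f_sub_left hf, f_sub_right hf, f_sub_right hf] at h3
      have h5 : (2 : F) * f v v = 0 := by linear_combination h1 + h3 - 2 * h4
      exact (mul_eq_zero.1 h5).resolve_left h2
    · have := hcon v hv 1 K.one_mem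
      rwa [one_mulVec] at this
  have hw00 : w0 ≠ 0 := by
    rintro rfl
    exact hw0 (mulVec_zero _)
  obtain ⟨⟨x, hx⟩, -⟩ := hf.nondegenerate w0 hw00
  apply hx
  have h1 := hall (x + w0)
  rw [hf.bilinear.add_left, hf.bilinear.add_right, hf.bilinear.add_right, hall x, hall w0,
    hf.symm w0 x] at h1
  have h5 : (2 : F) * f x w0 = 0 := by linear_combination h1
  exact (mul_eq_zero.1 h5).resolve_left h2

end form

theorem skew_line_aux (h2 : (2 : F) ≠ 0) {f : (ι → F) → (ι → F) → F} (hf : IsSymmetricForm f) {r : ℕ}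
    (K : Subalgebra F (Matrix ι ι F)) (hK : IsFieldSubalgebra r K)
    (hM1 : ∀ (w u : ι → F), w ≠ 0 → (∀ k ∈ K, u ≠ k *ᵥ w) →
      ∀ v, ∃ a ∈ K, ∃ b ∈ K, v = a *ᵥ w + b *ᵥ u)
    (hsa : IsSelfAdjointFor f K) (d : Matrix ι ι F) (hd0 : d ≠ 0)
    (hdK : Cent K d) (hd : ∀ u v, f (d *ᵥ u) v = - f u (d *ᵥ v)) :
    (∀ x : Matrix ι ι F, Cent K x → (∀ u v, f (x *ᵥ u) v = - f u (x *ᵥ v)) →
      ∃ k ∈ K, x = k * d) ∧
    (∀ x : Matrix ι ι F, Cent K x → x * d = d * x → ∃ a ∈ K, ∃ b ∈ K, x = a + b * d) := by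
  obtain ⟨w, hdw, l₀, hl₀, hl₀w⟩ := exists_good h2 hf K d hd0
  have hw : w ≠ 0 := by
    rintro rfl
    exact hdw (mulVec_zero _)
  have hniso : ∀ k ∈ K, (∀ l ∈ K, f (k *ᵥ w) (l *ᵥ w) = 0) → k = 0 := by
    intro k hk h
    by_contra hk0
    exact hl₀w (isotropic_of_orth hf K hK hsa w k hk hk0 h l₀ hl₀)
  have hS1d : ∀ l ∈ K, f (d *ᵥ w) (l *ᵥ w) = 0 := fun l hl => skew_orth h2 hf K hsa d hdK hd w l hl
  have hu : ∀ k ∈ K, d *ᵥ w ≠ k *ᵥ w := by
    intro k hk hEq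
    have hk0 : k = 0 := hniso k hk (fun l hl => by rw [← hEq]; exact hS1d l hl)
    rw [hk0, zero_mulVec] at hEq
    exact hdw hEq
  have coords := hM1 w (d *ᵥ w) hw hu
  have zero_of : ∀ g : Matrix ι ι F, Cent K g → g *ᵥ w = 0 → g *ᵥ (d *ᵥ w) = 0 → g = 0 := by
    intro g hg h1 h3
    rw [ext_iff_mulVec]
    intro v
    obtain ⟨a, ha, b, hb, rfl⟩ := coords v
    rw [mulVec_add, mulVec_mulVec, mulVec_mulVec, hg a ha, hg b hb, ← mulVec_mulVec,
      ← mulVec_mulVec, h1, h3, mulVec_zero, mulVec_zero, zero_mulVec, add_zero]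
  constructor
  · intro x hxK hx
    obtain ⟨a, ha, b, hb, hxw⟩ := coords (x *ᵥ w)
    have ha0 : a = 0 := by
      apply hniso a ha
      intro l hl
      have h1 : a *ᵥ w = x *ᵥ w - b *ᵥ (d *ᵥ w) := by rw [hxw]; abel
      rw [h1, f_sub_left hf, skew_orth h2 hf K hsa x hxK hx w l hl, hsa b hb, mulVec_mulVec,
        hS1d _ (K.mul_mem hb hl), sub_zero]
    rw [ha0, zero_mulVec, zero_add] at hxw
    refine ⟨b, hb, ?_⟩
    have hgK : Cent K (x - b * d) := by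
      intro k hk
      rw [sub_mul, mul_sub, hxK k hk, mul_assoc, hdK k hk, ← mul_assoc, ← mul_assoc,
        hK.comm b hb k hk]
    have hgskew : ∀ p q, f ((x - b * d) *ᵥ p) q = - f p ((x - b * d) *ᵥ q) := by
      intro p q
      rw [sub_mulVec, sub_mulVec, f_sub_left hf, f_sub_right hf, hx, ← mulVec_mulVec, hsa b hb, hd,
        mulVec_mulVec, hdK b hb]
      ring
    have hgw : (x - b * d) *ᵥ w = 0 := by
      rw [sub_mulVec, hxw, ← mulVec_mulVec, sub_self]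
    have hgu : (x - b * d) *ᵥ (d *ᵥ w) = 0 := by
      by_contra h0
      obtain ⟨-, y, hy⟩ := hf.nondegenerate _ h0
      apply hy
      obtain ⟨a', ha', b', hb', rfl⟩ := coords y
      rw [hf.bilinear.add_right, skew_orth h2 hf K hsa _ hgK hgskew (d *ᵥ w) b' hb', add_zero,
        hgskew, mulVec_mulVec, hgK a' ha', ← mulVec_mulVec, hgw, mulVec_zero, f_zero_right hf,
        neg_zero]
    exact sub_eq_zero.1 (zero_of _ hgK hgw hgu)
  · intro x hxK hxd
    obtain ⟨a, ha, b, hb, hxw⟩ := coords (x *ᵥ w)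
    refine ⟨a, ha, b, hb, ?_⟩
    have hgK : Cent K (x - (a + b * d)) := by
      intro k hk
      rw [sub_mul, mul_sub, hxK k hk, add_mul, mul_add, hK.comm a ha k hk, mul_assoc, hdK k hk,
        ← mul_assoc, ← mul_assoc, hK.comm b hb k hk]
    have hgd : (x - (a + b * d)) * d = d * (x - (a + b * d)) := by
      rw [sub_mul, mul_sub, hxd, add_mul, mul_add, hdK a ha, ← mul_assoc d b d, hdK b hb]
    have hgw : (x - (a + b * d)) *ᵥ w = 0 := by
      rw [sub_mulVec, hxw, add_mulVec, ← mulVec_mulVec, sub_self]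
    have hgu : (x - (a + b * d)) *ᵥ (d *ᵥ w) = 0 := by
      rw [mulVec_mulVec, hgd, ← mulVec_mulVec, hgw, mulVec_zero]
    exact sub_eq_zero.1 (zero_of _ hgK hgw hgu)

end Cfsg.Agent.Lib.Helper51.O10
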