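/-
helper51 for helper21's farm (orthogonal groups in dimension 10): piece M3.
-/
import Cfsg.Agent.Lib.Helper51.O10.M3aux
import Cfsg.Agent.Lib.Helper2.O10.M1

set_option autoImplicit false
set_option linter.unusedSectionVars false

namespace Cfsg.Agent.Lib.Helper51.O10

open Cfsg Cfsg.Geo Matrix Cfsg.Agent.Lib.Helper13.Asch Cfsg.Agent.Lib.Helper90.Sp
  Cfsg.Agent.Lib.Helper57.OE Cfsg.Agent.Lib.Helper21.O10
open scoped Kronecker MatrixGroups commutatorElement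

variable {ι : Type} [Fintype ι] [DecidableEq ι] {F : Type*} [Field F] {Q : (ι → F) → F}

/-- M3 -/
theorem skew_line (h2 : (2 : F) ≠ 0) {f : (ι → F) → (ι → F) → F} (hf : IsSymmetricForm f) {r : ℕ}
    (K : Subalgebra F (Matrix ι ι F)) (hK : IsFieldSubalgebra r K)
    (h2r : 2 * r = Fintype.card ι) (hsa : IsSelfAdjointFor f K) (d : Matrix ι ι F) (hd0 : d ≠ 0)
    (hdK : Cent K d) (hd : ∀ u v, f (d *ᵥ u) v = - f u (d *ᵥ v)) :
    (∀ x : Matrix ι ι F, Cent K x → (∀ u v, f (x *ᵥ u) v = - f u (x *ᵥ v)) →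
      ∃ k ∈ K, x = k * d) ∧
    (∀ x : Matrix ι ι F, Cent K x → x * d = d * x → ∃ a ∈ K, ∃ b ∈ K, x = a + b * d) :=
  skew_line_aux h2 hf K hK
    (fun w u hw hu => Cfsg.Agent.Lib.Helper2.O10.exists_coords K hK h2r w u hw hu) hsa d hd0 hdK hd

end Cfsg.Agent.Lib.Helper51.O10
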