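/-
helper51 for helper21's farm (orthogonal groups in dimension 10): piece M4, with the conclusion of
piece M3 as a hypothesis.
-/
import Cfsg.Agent.Lib.Helper51.O10.M3aux

set_option autoImplicit false
set_option linter.unusedSectionVars false

namespace Cfsg.Agent.Lib.Helper51.O10

open Cfsg Cfsg.Geo Matrix Cfsg.Agent.Lib.Helper13.Asch Cfsg.Agent.Lib.Helper90.Sp
  Cfsg.Agent.Lib.Helper57.OE Cfsg.Agent.Lib.Helper21.O10
open scoped Kronecker MatrixGroups commutatorElement

variable {ι : Type} [Fintype ι] [DecidableEq ι] {F : Type*} [Field F] {Q : (ι → F) → F}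

/-- conjugation of a matrix by an invertible matrix -/
def cj (g : GL ι F) (X : Matrix ι ι F) : Matrix ι ι F :=
  (g : Matrix ι ι F) * X * ((g⁻¹ : GL ι F) : Matrix ι ι F)

theorem cj_mul (g h : GL ι F) (X : Matrix ι ι F) : cj (g * h) X = cj g (cj h X) := by
  simp only [cj, _root_.mul_inv_rev, Units.val_mul, mul_assoc]

theorem cj_one (X : Matrix ι ι F) : cj (1 : GL ι F) X = X := by
  simp [cj]

theorem comm_of_cj_eq {g : GL ι F} {X : Matrix ι ι F} (h : cj g X = X) :
    (g : Matrix ι ι F) * X = X * (g : Matrix ι ι F) := by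
  have h1 : cj g X * (g : Matrix ι ι F) = (g : Matrix ι ι F) * X := by
    unfold cj
    rw [mul_assoc, Units.inv_mul, mul_one]
  rw [← h1, h]

/-- the invertible matrices commuting with `d` -/
def commSub (d : Matrix ι ι F) : Subgroup (GL ι F) where
  carrier := {g | cj g d = d}
  mul_mem' := by
    intro a b ha hb
    show cj (a * b) d = d
    rw [cj_mul, show cj b d = d from hb, show cj a d = d from ha]
  one_mem' := cj_one d
  inv_mem' := by
    intro a ha
    show cj a⁻¹ d = d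
    have h1 : cj a⁻¹ (cj a d) = d := by rw [← cj_mul, inv_mul_cancel, cj_one]
    rwa [show cj a d = d from ha] at h1

theorem comm_commutator_odd_aux {f : (ι → F) → (ι → F) → F}
    (hf : IsSymmetricForm f) {r : ℕ} (K : Subalgebra F (Matrix ι ι F))
    (hK : IsFieldSubalgebra r K)
    (hM3 : ∀ d : Matrix ι ι F, d ≠ 0 → Cent K d → (∀ u v, f (d *ᵥ u) v = - f u (d *ᵥ v)) →
      (∀ x : Matrix ι ι F, Cent K x → (∀ u v, f (x *ᵥ u) v = - f u (x *ᵥ v)) →
        ∃ k ∈ K, x = k * d) ∧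
      (∀ x : Matrix ι ι F, Cent K x → x * d = d * x → ∃ a ∈ K, ∃ b ∈ K, x = a + b * d))
    (N : Subgroup (GL ι F)) (hN : FixesForm (matrixSet N) f)
    (hNK : ∀ x ∈ N, Cent K (x : Matrix ι ι F)) :
    ∀ x ∈ ⁅N, N⁆, ∀ y ∈ ⁅N, N⁆, x * y = y * x := by
  have hle : ⁅N, N⁆ ≤ N := by
    rw [Subgroup.commutator_le]
    intro a ha b hb
    rw [commutatorElement_def]
    exact N.mul_mem (N.mul_mem (N.mul_mem ha hb) (N.inv_mem ha)) (N.inv_mem hb)
  have hadj : ∀ z ∈ N, ∀ u v, f ((z : Matrix ι ι F) *ᵥ u) v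
      = f u (((z⁻¹ : GL ι F) : Matrix ι ι F) *ᵥ v) := by
    intro z hz u v
    have := hN (z : Matrix ι ι F) ⟨z, hz, rfl⟩ u (((z⁻¹ : GL ι F) : Matrix ι ι F) *ᵥ v)
    rwa [mulVec_mulVec, Units.mul_inv, one_mulVec] at this
  by_cases hcase : ∀ y ∈ N, (y : Matrix ι ι F) - ((y⁻¹ : GL ι F) : Matrix ι ι F) = 0
  · -- exponent two
    have hinv : ∀ y ∈ N, y⁻¹ = y := by
      intro y hy
      apply Units.ext
      exact (sub_eq_zero.1 (hcase y hy)).symm
    intro x hx y hy
    have h1 := hinv _ (N.mul_mem (hle hx) (hle hy))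
    rw [_root_.mul_inv_rev, hinv x (hle hx), hinv y (hle hy)] at h1
    exact h1.symm
  · push Not at hcase
    obtain ⟨y0, hy0, hd0⟩ := hcase
    set d : Matrix ι ι F := (y0 : Matrix ι ι F) - ((y0⁻¹ : GL ι F) : Matrix ι ι F) with hd
    have hdK : Cent K d := by
      intro k hk
      rw [hd, sub_mul, mul_sub, hNK y0 hy0 k hk, hNK y0⁻¹ (N.inv_mem hy0) k hk]
    have hdskew : ∀ u v, f (d *ᵥ u) v = - f u (d *ᵥ v) := by
      intro u v
      have h1 := hadj y0 hy0 u v
      have h2 := hadj y0⁻¹ (N.inv_mem hy0) u v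
      rw [inv_inv] at h2
      rw [hd, sub_mulVec, sub_mulVec, f_sub_left hf, f_sub_right hf, h1, h2]
      ring
    obtain ⟨P1, P2⟩ := hM3 d hd0 hdK hdskew
    have hcjK : ∀ z ∈ N, ∀ k ∈ K, ∀ X : Matrix ι ι F, cj z (k * X) = k * cj z X := by
      intro z hz k hk X
      unfold cj
      rw [← mul_assoc, hNK z hz k hk, mul_assoc, mul_assoc, mul_assoc]
    have hc : ∀ z ∈ N, ∃ c ∈ K, cj z d = c * d := by
      intro z hz
      apply P1
      · intro k hk
        unfold cj
        rw [mul_assoc, hNK z⁻¹ (N.inv_mem hz) k hk, mul_assoc, ← mul_assoc d, hdK k hk,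
          ← mul_assoc, ← mul_assoc, ← mul_assoc, hNK z hz k hk]
        simp only [mul_assoc]
      · intro u v
        have h2 := hadj z⁻¹ (N.inv_mem hz)
        rw [inv_inv] at h2
        unfold cj
        rw [← mulVec_mulVec, ← mulVec_mulVec, hadj z hz, hdskew, h2, ← mulVec_mulVec,
          ← mulVec_mulVec]
    have hswap : ∀ g ∈ N, ∀ h ∈ N, cj (g * h) d = cj (h * g) d := by
      intro g hg h hh
      obtain ⟨c, hcK, hcg⟩ := hc g hg
      obtain ⟨e, heK, heh⟩ := hc h hh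
      rw [cj_mul, cj_mul, heh, hcg, hcjK g hg e heK, hcjK h hh c hcK, hcg, heh, ← mul_assoc,
        ← mul_assoc, hK.comm e heK c hcK]
    have hS : ⁅N, N⁆ ≤ commSub d := by
      rw [Subgroup.commutator_le]
      intro g hg h hh
      show cj ⁅g, h⁆ d = d
      have h1 : ⁅g, h⁆ = (g * h) * (g⁻¹ * h⁻¹) := by
        rw [commutatorElement_def]; group
      rw [h1, cj_mul, hswap g⁻¹ (N.inv_mem hg) h⁻¹ (N.inv_mem hh), ← cj_mul]
      have h2 : g * h * (h⁻¹ * g⁻¹) = 1 := by group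
      rw [h2, cj_one]
    intro x hx y hy
    obtain ⟨a, ha, b, hb, hxe⟩ := P2 (x : Matrix ι ι F) (hNK x (hle hx)) (comm_of_cj_eq (hS hx))
    obtain ⟨a', ha', b', hb', hye⟩ := P2 (y : Matrix ι ι F) (hNK y (hle hy)) (comm_of_cj_eq (hS hy))
    apply Units.ext
    rw [Units.val_mul, Units.val_mul, hxe, hye]
    have e1 : a * a' = a' * a := hK.comm a ha a' ha'
    have e2 : a * (b' * d) = b' * d * a := by
      rw [mul_assoc, hdK a ha, ← mul_assoc, ← mul_assoc, hK.comm a ha b' hb']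
    have e3 : b * d * a' = a' * (b * d) := by
      rw [mul_assoc, hdK a' ha', ← mul_assoc, ← mul_assoc, hK.comm b hb a' ha']
    have e4 : b * d * (b' * d) = b' * d * (b * d) := by
      rw [mul_assoc, ← mul_assoc d b' d, hdK b' hb', mul_assoc b' d (b * d), ← mul_assoc d b d,
        hdK b hb, ← mul_assoc, ← mul_assoc, ← mul_assoc, ← mul_assoc, hK.comm b hb b' hb']
    rw [add_mul, mul_add, mul_add, add_mul, mul_add, mul_add, e1, e2, e3, e4]
    abel

end Cfsg.Agent.Lib.Helper51.O10
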