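/-
helper51 for helper21's farm (orthogonal groups in dimension 10): piece M4.
-/
import Cfsg.Agent.Lib.Helper51.O10.M4aux
import Cfsg.Agent.Lib.Helper51.O10.M3

set_option autoImplicit false
set_option linter.unusedSectionVars false

namespace Cfsg.Agent.Lib.Helper51.O10

open Cfsg Cfsg.Geo Matrix Cfsg.Agent.Lib.Helper13.Asch Cfsg.Agent.Lib.Helper90.Sp
  Cfsg.Agent.Lib.Helper57.OE Cfsg.Agent.Lib.Helper21.O10
open scoped Kronecker MatrixGroups commutatorElement

variable {ι : Type} [Fintype ι] [DecidableEq ι] {F : Type*} [Field F] {Q : (ι → F) → F}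

/-- M4 -/
theorem comm_commutator_odd (h2 : (2 : F) ≠ 0) {f : (ι → F) → (ι → F) → F}
    (hf : IsSymmetricForm f) {r : ℕ} (K : Subalgebra F (Matrix ι ι F))
    (hK : IsFieldSubalgebra r K) (h2r : 2 * r = Fintype.card ι) (hsa : IsSelfAdjointFor f K)
    (N : Subgroup (GL ι F)) (hN : FixesForm (matrixSet N) f)
    (hNK : ∀ x ∈ N, Cent K (x : Matrix ι ι F)) :
    ∀ x ∈ ⁅N, N⁆, ∀ y ∈ ⁅N, N⁆, x * y = y * x :=
  comm_commutator_odd_aux hf K hK
    (fun d hd0 hdK hd => skew_line h2 hf K hK h2r hsa d hd0 hdK hd) N hN hNK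

end Cfsg.Agent.Lib.Helper51.O10
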